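/-
helper903: S2484, counting with cosets of the inner automorphisms.
-/
import Mathlib
import Cfsg.Agent.H523.DspMeet
import Cfsg.Agent.H172.SIBase

set_option autoImplicit false
set_option linter.unusedSectionVars false

namespace Cfsg.Agent.H903.MeetCoset

open Cfsg.Agent.H903.SylMeet Cfsg.Agent.H523.Dsp Cfsg.Agent.H523.DspMeet

variable {p : ℕ} [Fact p.Prime] {T : Type*} [Group T] [Finite T] [IsSimpleGroup T]

/-- the elements conjugating `y` into a set -/
theorem card_conj_le (hT : ¬ IsMulCommutative T) (y : MulAut T) (Z : Finset (MulAut T)) (N : Finset T)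
    (hN : ∀ x ∈ N, MulAut.conj x * y * (MulAut.conj x)⁻¹ ∈ Z) :
    (fix y).index * N.card ≤ Z.card * Nat.card T := by
  classical
  let f : T → MulAut T := fun x => MulAut.conj x * y * (MulAut.conj x)⁻¹
  have h1 : N.card ≤ Nat.card (fix y) * (N.image f).card := by
    refine Finset.card_le_mul_card_image N _ fun b hb => ?_
    obtain ⟨x₀, hx₀, rfl⟩ := Finset.mem_image.1 hb
    have hfin : Fintype ↥(fix y) := Fintype.ofFinite _
    rw [Nat.card_eq_fintype_card, ← Finset.card_univ (α := ↥(fix y)),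
      ← Finset.card_map (Function.Embedding.subtype _)]
    refine Finset.card_le_card_of_injOn (fun x => x₀⁻¹ * x) (fun x hx => ?_) (fun a _ b _ hab => by simpa using hab)
    rw [Finset.mem_coe, Finset.mem_filter] at hx
    rw [Finset.mem_coe, Finset.mem_map]
    refine ⟨⟨x₀⁻¹ * x, (conj_eq_iff hT y _).1 ?_⟩, Finset.mem_univ _, rfl⟩
    have h2 : MulAut.conj x * y * (MulAut.conj x)⁻¹ = MulAut.conj x₀ * y * (MulAut.conj x₀)⁻¹ := hx.2
    rw [map_mul, map_inv, mul_inv_rev, inv_inv]
    calc (MulAut.conj x₀)⁻¹ * MulAut.conj x * y * ((MulAut.conj x)⁻¹ * MulAut.conj x₀) =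
        (MulAut.conj x₀)⁻¹ * (MulAut.conj x * y * (MulAut.conj x)⁻¹) * MulAut.conj x₀ := by group
      _ = y := by rw [h2]; group
  have h2 : (N.image f).card ≤ Z.card := by
    refine Finset.card_le_card fun z hz => ?_
    obtain ⟨x, hx, rfl⟩ := Finset.mem_image.1 hz
    exact hN x hx
  calc (fix y).index * N.card ≤ (fix y).index * (Nat.card (fix y) * Z.card) :=
        Nat.mul_le_mul_left _ (h1.trans (Nat.mul_le_mul_left _ h2))
    _ = Z.card * Nat.card T := by rw [← (fix y).index_mul_card]; ring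

/-- **Counting with cosets of `Inn T`.** -/
theorem meet_of_cent_coset (hT : ¬ IsMulCommutative T) {m : ℕ}
    (hm : ∀ y : MulAut T, orderOf y = p → m ≤ (fix y).index) (P : Sylow p (MulAut T)) (I : Subgroup (MulAut T))
    (hI : I = (P : Subgroup (MulAut T)) ⊓ Cfsg.Inn T)
    (h : (Nat.card I - 1) * (Nat.card I - 1) + (Nat.card P - Nat.card I) * Nat.card I < (p - 1) * m) : Meet p T := by
  classical
  apply meet_of_sylow P
  by_contra hcon
  push Not at hcon
  have hfT : Fintype T := Fintype.ofFinite T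
  have hfA : Fintype (MulAut T) := Fintype.ofFinite _
  have hp : p.Prime := Fact.out
  have hIP : I ≤ (P : Subgroup (MulAut T)) := hI ▸ inf_le_left
  have hnorm : ∀ (x : T) (y : MulAut T), y ∈ Cfsg.Inn T → MulAut.conj x * y * (MulAut.conj x)⁻¹ ∈ Cfsg.Inn T := by
    rintro x _ ⟨g, rfl⟩
    exact ⟨x * g * x⁻¹, by rw [map_mul, map_mul, map_inv]⟩
  have hcos : ∀ (x : T) (y : MulAut T), MulAut.conj x * y * (MulAut.conj x)⁻¹ * y⁻¹ ∈ Cfsg.Inn T := by
    intro x y
    rw [conj_mul_mul_inv, mul_assoc, mul_inv_cancel, mul_one]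
    exact ⟨_, rfl⟩
  -- the elements of order `p`
  let IF : Finset (MulAut T) := Finset.univ.filter fun y => y ∈ I
  have hIF : IF.card = Nat.card I := by
    rw [Nat.card_eq_fintype_card]
    exact (Fintype.card_subtype _).symm
  let A : Finset (MulAut T) := Finset.univ.filter fun y => y ∈ (P : Subgroup (MulAut T)) ∧ orderOf y = p
  let r : T → MulAut T → Prop := fun x y => MulAut.conj x * y * (MulAut.conj x)⁻¹ ∈ (P : Subgroup (MulAut T))
  have hdc : ∑ x : T, (A.filter fun y => r x y).card = ∑ y ∈ A, (Finset.univ.filter fun x : T => r x y).card := by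
    simp only [Finset.card_filter]
    exact Finset.sum_comm
  -- lower bound
  have hlow : ∀ x : T, p - 1 ≤ (A.filter fun y => r x y).card := by
    intro x
    obtain ⟨y, hy, hxy, hy1⟩ := hcon x
    obtain ⟨k, hk⟩ := P.isPGroup' ⟨y, hy⟩
    have hk' : y ^ p ^ k = 1 := by simpa using congrArg Subtype.val hk
    obtain ⟨j, -, hj⟩ := (Nat.dvd_prime_pow hp).1 (orderOf_dvd_of_pow_eq_one hk')
    have hj0 : j ≠ 0 := by
      rintro rfl
      rw [pow_zero] at hj
      exact hy1 (orderOf_eq_one_iff.1 hj)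
    obtain ⟨i, rfl⟩ := Nat.exists_eq_succ_of_ne_zero hj0
    have hz : orderOf (y ^ p ^ i) = p := by
      rw [orderOf_pow_of_dvd (pow_ne_zero _ hp.ne_zero) (by rw [hj]; exact pow_dvd_pow _ (Nat.le_succ i)), hj,
        Nat.pow_succ, Nat.mul_div_cancel_left _ (pow_pos hp.pos _)]
    set z := y ^ p ^ i with hzdef
    have hzP : z ∈ (P : Subgroup (MulAut T)) := pow_mem hy _
    have hxz : MulAut.conj x * z * (MulAut.conj x)⁻¹ ∈ (P : Subgroup (MulAut T)) := by
      rw [hzdef, ← conj_pow]
      exact pow_mem hxy _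
    have hsub : (Finset.univ.filter fun w : MulAut T => w ∈ Subgroup.zpowers z).erase 1 ⊆
        A.filter fun y => r x y := by
      intro w hw
      obtain ⟨hw1, hw2⟩ := Finset.mem_erase.1 hw
      have hw3 := (Finset.mem_filter.1 hw2).2
      obtain ⟨n, rfl⟩ := Subgroup.mem_zpowers_iff.1 hw3
      refine Finset.mem_filter.2 ⟨Finset.mem_filter.2 ⟨Finset.mem_univ _, zpow_mem hzP n, ?_⟩, ?_⟩
      · have h1 : orderOf (z ^ n) ∣ p := by
          rw [← hz]
          exact orderOf_dvd_of_mem_zpowers hw3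
        exact (hp.eq_one_or_self_of_dvd _ h1).resolve_left fun h => hw1 (orderOf_eq_one_iff.1 h)
      · show MulAut.conj x * z ^ n * (MulAut.conj x)⁻¹ ∈ (P : Subgroup (MulAut T))
        rw [← conj_zpow]
        exact zpow_mem hxz n
    refine le_trans (le_of_eq ?_) (Finset.card_le_card hsub)
    rw [Finset.card_erase_of_mem (Finset.mem_filter.2 ⟨Finset.mem_univ _, one_mem _⟩), ← Fintype.card_subtype,
      ← Nat.card_eq_fintype_card]
    have : Nat.card ↥(Subgroup.zpowers z) = p := by rw [Nat.card_zpowers, hz]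
    exact congrArg (· - 1) this.symm
  -- upper bounds
  have hup1 : ∀ y ∈ A, y ∈ I → m * (Finset.univ.filter fun x : T => r x y).card ≤ (Nat.card I - 1) * Nat.card T := by
    intro y hy hyI
    have ho : orderOf y = p := (Finset.mem_filter.1 hy).2.2
    have h1 := card_conj_le hT y (IF.erase 1) (Finset.univ.filter fun x : T => r x y) (by
      intro x hx
      refine Finset.mem_erase.2 ⟨?_, Finset.mem_filter.2 ⟨Finset.mem_univ _, ?_⟩⟩
      · intro h4
        rw [mul_inv_eq_one, mul_eq_left] at h4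
        rw [h4, orderOf_one] at ho
        exact hp.one_lt.ne ho
      · rw [hI]
        refine ⟨(Finset.mem_filter.1 hx).2, hnorm x y ?_⟩
        rw [hI] at hyI
        exact hyI.2)
    rw [Finset.card_erase_of_mem (Finset.mem_filter.2 ⟨Finset.mem_univ _, one_mem _⟩), hIF] at h1
    exact (Nat.mul_le_mul_right _ (hm y ho)).trans h1
  have hup2 : ∀ y ∈ A, m * (Finset.univ.filter fun x : T => r x y).card ≤ Nat.card I * Nat.card T := by
    intro y hy
    have ho : orderOf y = p := (Finset.mem_filter.1 hy).2.2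
    have hyP := (Finset.mem_filter.1 hy).2.1
    have h1 := card_conj_le hT y (IF.image fun w => w * y) (Finset.univ.filter fun x : T => r x y) (by
      intro x hx
      refine Finset.mem_image.2 ⟨MulAut.conj x * y * (MulAut.conj x)⁻¹ * y⁻¹,
        Finset.mem_filter.2 ⟨Finset.mem_univ _, ?_⟩, by group⟩
      rw [hI]
      exact ⟨Subgroup.mul_mem _ (Finset.mem_filter.1 hx).2 (Subgroup.inv_mem _ hyP), hcos x y⟩)
    have h2 : (IF.image fun w => w * y).card ≤ Nat.card I := Finset.card_image_le.trans hIF.le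
    exact ((Nat.mul_le_mul_right _ (hm y ho)).trans h1).trans (Nat.mul_le_mul_right _ h2)
  -- the number of elements
  have hc1 : (A.filter fun y => y ∈ I).card ≤ Nat.card I - 1 := by
    rw [← hIF, ← Finset.card_erase_of_mem (a := (1 : MulAut T))
      (Finset.mem_filter.2 ⟨Finset.mem_univ _, one_mem _⟩)]
    refine Finset.card_le_card fun y hy => ?_
    obtain ⟨h1, h2⟩ := Finset.mem_filter.1 hy
    refine Finset.mem_erase.2 ⟨?_, Finset.mem_filter.2 ⟨Finset.mem_univ _, h2⟩⟩
    rintro rfl
    have ho := (Finset.mem_filter.1 h1).2.2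
    rw [orderOf_one] at ho
    exact hp.one_lt.ne ho
  have hc2 : (A.filter fun y => y ∉ I).card ≤ Nat.card P - Nat.card I := by
    let PF : Finset (MulAut T) := Finset.univ.filter fun y => y ∈ (P : Subgroup (MulAut T))
    have hPF : PF.card = Nat.card P := by
      rw [Nat.card_eq_fintype_card]
      exact (Fintype.card_subtype _).symm
    rw [← hPF, ← hIF, ← Finset.card_sdiff_of_subset (fun y hy => Finset.mem_filter.2 ⟨Finset.mem_univ _,
      hIP (Finset.mem_filter.1 hy).2⟩)]
    refine Finset.card_le_card fun y hy => ?_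
    obtain ⟨h1, h2⟩ := Finset.mem_filter.1 hy
    exact Finset.mem_sdiff.2 ⟨Finset.mem_filter.2 ⟨Finset.mem_univ _, (Finset.mem_filter.1 h1).2.1⟩,
      fun h3 => h2 (Finset.mem_filter.1 h3).2⟩
  have hT0 : 0 < Nat.card T := Nat.card_pos
  have key : m * ((p - 1) * Nat.card T) ≤
      ((Nat.card I - 1) * (Nat.card I - 1) + (Nat.card P - Nat.card I) * Nat.card I) * Nat.card T := by
    calc m * ((p - 1) * Nat.card T) = m * ∑ _x : T, (p - 1) := by
          rw [Finset.sum_const, smul_eq_mul, Finset.card_univ, Nat.card_eq_fintype_card, mul_comm (p - 1)]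
      _ ≤ m * ∑ x : T, (A.filter fun y => r x y).card := Nat.mul_le_mul_left _ (Finset.sum_le_sum fun x _ => hlow x)
      _ = ∑ y ∈ A, m * (Finset.univ.filter fun x : T => r x y).card := by rw [hdc, Finset.mul_sum]
      _ = ∑ y ∈ A.filter (fun y => y ∈ I), m * (Finset.univ.filter fun x : T => r x y).card +
            ∑ y ∈ A.filter (fun y => y ∉ I), m * (Finset.univ.filter fun x : T => r x y).card :=
          (Finset.sum_filter_add_sum_filter_not _ _ _).symm
      _ ≤ (Nat.card I - 1) * ((Nat.card I - 1) * Nat.card T) +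
            (Nat.card P - Nat.card I) * (Nat.card I * Nat.card T) := by
          refine Nat.add_le_add ?_ ?_
          · refine (Finset.sum_le_card_nsmul _ _ _ fun y hy => hup1 y (Finset.mem_filter.1 hy).1
              (Finset.mem_filter.1 hy).2).trans ?_
            rw [smul_eq_mul]
            exact Nat.mul_le_mul_right _ hc1
          · refine (Finset.sum_le_card_nsmul _ _ _ fun y hy => hup2 y (Finset.mem_filter.1 hy).1).trans ?_
            rw [smul_eq_mul]
            exact Nat.mul_le_mul_right _ hc2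
      _ = _ := by ring
  have h2 := Nat.mul_lt_mul_of_pos_right h hT0
  have h3 : m * ((p - 1) * Nat.card T) = (p - 1) * m * Nat.card T := by ring
  rw [h3] at key
  omega

/-- **Form for `²E₆(2)`**: `|T|₃ = 3⁹`, `|Out T|₃ = 3` -/
theorem meet_of_cent_3 (hT : ¬ IsMulCommutative T) {m a : ℕ}
    (hm : ∀ y : MulAut T, y ≠ 1 → y ^ p = 1 → m ≤ (fix y).index)
    (hc : padicValNat p (Nat.card T) ≤ a) (ho : padicValNat p (Nat.card (Cfsg.Out T)) ≤ 1)
    (h : p * (p ^ a) ^ 2 ≤ (p - 1) * m) : Meet p T := by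
  have hp : p.Prime := Fact.out
  obtain ⟨P⟩ : Nonempty (Sylow p (MulAut T)) := inferInstance
  set I : Subgroup (MulAut T) := (P : Subgroup (MulAut T)) ⊓ Cfsg.Inn T with hI
  have hPc := Cfsg.Agent.H172.SI.card_sylow hT P
  have hinj := conj_injective (T := T) hT
  -- `|I| ≤ p ^ a`
  have hIc : Nat.card I ≤ p ^ a := by
    have h1 : IsPGroup p ↥(I.comap (MulAut.conj : T →* MulAut T)) := by
      refine IsPGroup.comap_of_injective (H := I) ?_ _ hinj
      exact P.isPGroup'.to_le inf_le_left
    obtain ⟨k, hk⟩ := h1.exists_card_eq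
    have h2 : Nat.card ↥(I.comap (MulAut.conj : T →* MulAut T)) = Nat.card I := by
      have h3 : (I.comap (MulAut.conj : T →* MulAut T)).map MulAut.conj = I := by
        rw [Subgroup.map_comap_eq]
        exact inf_eq_right.2 inf_le_right
      conv_rhs => rw [← h3]
      exact (Subgroup.card_map_of_injective hinj).symm
    rw [← h2, hk]
    refine Nat.pow_le_pow_right hp.pos (le_trans ?_ hc)
    rw [← padicValNat_dvd_iff_le Nat.card_pos.ne', ← hk]
    exact Subgroup.card_subgroup_dvd_card _
  have hPle : Nat.card P ≤ p * Nat.card I := by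
    let f : ↥(P : Subgroup (MulAut T)) →* Cfsg.Out T :=
      (QuotientGroup.mk' (Cfsg.Inn T)).comp (P : Subgroup (MulAut T)).subtype
    have hker : f.ker = I.subgroupOf (P : Subgroup (MulAut T)) := by
      ext y
      rw [MonoidHom.mem_ker, Subgroup.mem_subgroupOf, hI]
      constructor
      · intro h
        exact ⟨y.2, (QuotientGroup.eq_one_iff _).1 h⟩
      · intro h
        exact (QuotientGroup.eq_one_iff _).2 h.2
    have h1 := Subgroup.card_mul_index f.ker
    rw [Subgroup.index_ker, hker, Nat.card_congr (Subgroup.subgroupOfEquivOfLe (hI ▸ inf_le_left)).toEquiv] at h1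
    have h2 : IsPGroup p ↥f.range := P.isPGroup'.of_surjective f.rangeRestrict f.rangeRestrict_surjective
    obtain ⟨k, hk⟩ := h2.exists_card_eq
    have h3 : k ≤ 1 := by
      refine le_trans ?_ ho
      rw [← padicValNat_dvd_iff_le Nat.card_pos.ne', ← hk]
      exact Subgroup.card_subgroup_dvd_card _
    have h4 : Nat.card ↥f.range ≤ p := by
      rw [hk]
      calc p ^ k ≤ p ^ 1 := Nat.pow_le_pow_right hp.pos h3
        _ = p := pow_one p
    have h5 : Nat.card P = Nat.card I * Nat.card ↥f.range := h1.symm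
    rw [h5, mul_comm p]
    exact Nat.mul_le_mul_left _ h4
  have hI0 : 0 < Nat.card I := Nat.card_pos
  refine meet_of_cent_coset hT (fun y hy => hm y ?_ ?_) P I hI ?_
  · rintro rfl
    rw [orderOf_one] at hy
    exact hp.one_lt.ne hy
  · rw [← hy]
    exact pow_orderOf_eq_one y
  · have h1 : Nat.card P - Nat.card I ≤ (p - 1) * Nat.card I := by
      rw [Nat.sub_mul, one_mul]
      omega
    have hp1 : 1 ≤ p := hp.one_lt.le
    set i := Nat.card I
    calc (i - 1) * (i - 1) + (Nat.card P - i) * i < i * i + (p - 1) * i * i := by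
          refine Nat.add_lt_add_of_lt_of_le ?_ (Nat.mul_le_mul_right _ h1)
          exact Nat.mul_lt_mul'' (by omega) (by omega)
      _ = p * i ^ 2 := by
          obtain ⟨q, rfl⟩ : ∃ q, p = q + 1 := ⟨p - 1, by omega⟩
          rw [Nat.add_sub_cancel]
          ring
      _ ≤ p * (p ^ a) ^ 2 := Nat.mul_le_mul_left _ (Nat.pow_le_pow_left hIc 2)
      _ ≤ (p - 1) * m := h

end Cfsg.Agent.H903.MeetCoset
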